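import Mathlib
import Cfsg.Prelude.Def_RootSubgroups
import Cfsg.Prelude.Def_Classical
import Cfsg.Agent.Lib.RootSubgroups.SL2Pair
import Cfsg.Agent.Lib.RootSubgroups.Commutator

/-!
Siegel transvection groups in the hyperbolic orthogonal group (basic theory).
-/

set_option autoImplicit false

namespace Cfsg.Agent.Lib.SiegelRoot

open Matrix Cfsg Cfsg.Agent.Lib.RootSubgroups.SL2Pair
open scoped MatrixGroups

variable {k : ℕ} {F : Type*} [Field F]

local notation "Q" => quadFormPlus k F
local notation "Vv" => (Fin k ⊕ Fin k → F)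

/-- the polar form -/
def B (u v : Fin k ⊕ Fin k → F) : F := Q (u + v) - Q u - Q v

lemma B_apply (u v : Vv) : B u v = ∑ i, (u (.inl i) * v (.inr i) + v (.inl i) * u (.inr i)) := by
  simp only [B, quadFormPlus, Pi.add_apply, ← Finset.sum_sub_distrib]
  exact Finset.sum_congr rfl (fun _ _ => by ring)

lemma Q_add (u v : Vv) : Q (u + v) = Q u + Q v + B u v := by rw [B]; ring

lemma Q_smul (c : F) (u : Vv) : Q (c • u) = c ^ 2 * Q u := by
  simp only [quadFormPlus, Pi.smul_apply, smul_eq_mul, Finset.mul_sum]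
  exact Finset.sum_congr rfl (fun _ _ => by ring)

lemma B_add_left (u v w : Vv) : B (u + v) w = B u w + B v w := by
  simp only [B_apply, Pi.add_apply, ← Finset.sum_add_distrib]
  exact Finset.sum_congr rfl (fun _ _ => by ring)

lemma B_smul_left (c : F) (u w : Vv) : B (c • u) w = c * B u w := by
  simp only [B_apply, Pi.smul_apply, smul_eq_mul, Finset.mul_sum]
  exact Finset.sum_congr rfl (fun _ _ => by ring)

lemma B_comm (u v : Vv) : B u v = B v u := by
  simp only [B_apply]
  exact Finset.sum_congr rfl (fun _ _ => by ring)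

lemma B_add_right (u v w : Vv) : B u (v + w) = B u v + B u w := by
  rw [B_comm, B_add_left, B_comm v, B_comm w]

lemma B_smul_right (c : F) (u w : Vv) : B u (c • w) = c * B u w := by
  rw [B_comm, B_smul_left, B_comm]

lemma B_zero_left (v : Vv) : B 0 v = 0 := by
  have := B_smul_left (0 : F) (0 : Vv) v
  simpa using this

lemma B_neg_left (u w : Vv) : B (-u) w = - B u w := by
  have := B_smul_left (-1 : F) u w
  simpa using this

lemma B_neg_right (u w : Vv) : B u (-w) = - B u w := by
  rw [B_comm, B_neg_left, B_comm]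

lemma B_sub_left (u v w : Vv) : B (u - v) w = B u w - B v w := by
  rw [sub_eq_add_neg, B_add_left, B_neg_left]; ring

lemma B_sub_right (u v w : Vv) : B u (v - w) = B u v - B u w := by
  rw [sub_eq_add_neg, B_add_right, B_neg_right]; ring

lemma B_self (u : Vv) : B u u = 2 * Q u := by
  simp only [B_apply, quadFormPlus, Finset.mul_sum]
  exact Finset.sum_congr rfl (fun _ _ => by ring)

lemma exists_ne_B {u : Vv} (hu : u ≠ 0) : ∃ v, B v u ≠ 0 := by
  obtain ⟨i, hi⟩ := Function.ne_iff.mp hu
  rcases i with i | i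
  · refine ⟨Pi.single (.inr i) 1, ?_⟩
    rw [B_apply, Finset.sum_eq_single i]
    · simpa using hi
    · intro b _ hb
      have : b ≠ i := hb
      simp [Pi.single_apply, this]
    · simp
  · refine ⟨Pi.single (.inl i) 1, ?_⟩
    rw [B_apply, Finset.sum_eq_single i]
    · simpa using hi
    · intro b _ hb
      have : b ≠ i := hb
      simp [Pi.single_apply, this]
    · simp

/-- the polar form as a functional -/
def Bf (r : Vv) : (Fin k ⊕ Fin k → F) →ₗ[F] F where
  toFun v := B v r
  map_add' u v := B_add_left u v r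
  map_smul' c v := B_smul_left c v r

lemma Bf_apply (r v : Vv) : Bf r v = B v r := rfl

/-- isometry from linear maps -/
def mkIso (f g : (Fin k ⊕ Fin k → F) →ₗ[F] (Fin k ⊕ Fin k → F)) (hfg : ∀ v, f (g v) = v)
    (hgf : ∀ v, g (f v) = v) (hQ : ∀ v, Q (f v) = Q v) : isometryGroup F (quadFormPlus k F) :=
  ⟨⟨LinearMap.toMatrix' f, LinearMap.toMatrix' g,
    by
      rw [← LinearMap.toMatrix'_comp]
      have : f ∘ₗ g = LinearMap.id := LinearMap.ext hfg
      rw [this, LinearMap.toMatrix'_id],
    by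
      rw [← LinearMap.toMatrix'_comp]
      have : g ∘ₗ f = LinearMap.id := LinearMap.ext hgf
      rw [this, LinearMap.toMatrix'_id]⟩, by
    intro u _
    show Q (LinearMap.toMatrix' f *ᵥ u) = Q u
    rw [LinearMap.toMatrix'_mulVec]
    exact hQ u⟩

/-- the action -/
def act (g : isometryGroup F (quadFormPlus k F)) (v : Vv) : Fin k ⊕ Fin k → F :=
  ((g : GL (Fin k ⊕ Fin k) F) : Matrix (Fin k ⊕ Fin k) (Fin k ⊕ Fin k) F) *ᵥ v

lemma act_mkIso (f g : (Fin k ⊕ Fin k → F) →ₗ[F] (Fin k ⊕ Fin k → F)) (hfg : ∀ v, f (g v) = v)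
    (hgf : ∀ v, g (f v) = v) (hQ : ∀ v, Q (f v) = Q v) (v : Vv) :
    act (mkIso f g hfg hgf hQ) v = f v := LinearMap.toMatrix'_mulVec f v

lemma act_mul (g g' : isometryGroup F (quadFormPlus k F)) (v : Vv) : act (g * g') v = act g (act g' v) := by
  simp only [act, mulVec_mulVec]
  rfl

lemma act_one (v : Vv) : act (1 : isometryGroup F (quadFormPlus k F)) v = v := by
  simp only [act]
  exact one_mulVec v

lemma act_add (g : isometryGroup F (quadFormPlus k F)) (u v : Vv) : act g (u + v) = act g u + act g v :=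
  mulVec_add _ _ _

lemma act_smul (g : isometryGroup F (quadFormPlus k F)) (c : F) (v : Vv) : act g (c • v) = c • act g v :=
  mulVec_smul _ _ _

lemma act_inv_act (g : isometryGroup F (quadFormPlus k F)) (v : Vv) : act g⁻¹ (act g v) = v := by
  rw [← act_mul, inv_mul_cancel, act_one]

lemma act_act_inv (g : isometryGroup F (quadFormPlus k F)) (v : Vv) : act g (act g⁻¹ v) = v := by
  rw [← act_mul, mul_inv_cancel, act_one]

lemma iso_ext {g g' : isometryGroup F (quadFormPlus k F)} (h : ∀ v, act g v = act g' v) : g = g' := by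
  apply Subtype.ext
  apply Units.ext
  apply Matrix.mulVec_injective
  funext v
  exact h v

lemma Q_act (g : isometryGroup F (quadFormPlus k F)) (v : Vv) : Q (act g v) = Q v := g.2 v v

lemma B_act (g : isometryGroup F (quadFormPlus k F)) (u v : Vv) : B (act g u) (act g v) = B u v := by
  simp only [B]
  rw [← act_add, Q_act, Q_act, Q_act]

lemma B_act_inv (g : isometryGroup F (quadFormPlus k F)) (u v : Vv) : B (act g⁻¹ u) v = B u (act g v) := by
  rw [← B_act g (act g⁻¹ u) v, act_act_inv]

/-- singular line data -/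
structure Sing (p r : Fin k ⊕ Fin k → F) : Prop where
  hp : Q p = 0
  hr : Q r = 0
  hpr : B p r = 0

lemma Sing.pp {p r : Vv} (h : Sing p r) : B p p = 0 := by rw [B_self, h.hp, mul_zero]

lemma Sing.rr {p r : Vv} (h : Sing p r) : B r r = 0 := by rw [B_self, h.hr, mul_zero]

lemma Sing.rp {p r : Vv} (h : Sing p r) : B r p = 0 := by rw [B_comm, h.hpr]

lemma Sing.act {p r : Vv} (h : Sing p r) (g : isometryGroup F (quadFormPlus k F)) :
    Sing (act g p) (act g r) :=
  ⟨by rw [Q_act, h.hp], by rw [Q_act, h.hr], by rw [B_act, h.hpr]⟩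

lemma Sing.comb {p r : Vv} (h : Sing p r) (a b c d : F) : Sing (a • p + b • r) (c • p + d • r) := by
  refine ⟨?_, ?_, ?_⟩
  · rw [Q_add, Q_smul, Q_smul, h.hp, h.hr, B_smul_left, B_smul_right, h.hpr]; ring
  · rw [Q_add, Q_smul, Q_smul, h.hp, h.hr, B_smul_left, B_smul_right, h.hpr]; ring
  · simp only [B_add_left, B_add_right, B_smul_left, B_smul_right, h.pp, h.rr, h.hpr, h.rp]
    ring

/-- the Siegel map -/
def sgL (p r : Vv) (c : F) : (Fin k ⊕ Fin k → F) →ₗ[F] (Fin k ⊕ Fin k → F) :=
  LinearMap.id + c • ((Bf r).smulRight p - (Bf p).smulRight r)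

lemma sgL_apply (p r : Vv) (c : F) (v : Vv) : sgL p r c v = v + c • (B v r • p - B v p • r) := rfl

lemma B_sgL_r {p r : Vv} (h : Sing p r) (c : F) (v : Vv) : B (sgL p r c v) r = B v r := by
  rw [sgL_apply, B_add_left, B_smul_left, B_sub_left, B_smul_left, B_smul_left, h.hpr, h.rr]; ring

lemma B_sgL_p {p r : Vv} (h : Sing p r) (c : F) (v : Vv) : B (sgL p r c v) p = B v p := by
  rw [sgL_apply, B_add_left, B_smul_left, B_sub_left, B_smul_left, B_smul_left, h.pp, h.rp]; ring

lemma sgL_comp {p r : Vv} (h : Sing p r) (c d : F) (v : Vv) :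
    sgL p r c (sgL p r d v) = sgL p r (c + d) v := by
  rw [sgL_apply p r c, B_sgL_r h, B_sgL_p h, sgL_apply, sgL_apply]
  ext i
  simp only [Pi.add_apply, Pi.smul_apply, Pi.sub_apply, smul_eq_mul]
  ring

lemma sgL_zero (p r : Vv) (v : Vv) : sgL p r 0 v = v := by
  rw [sgL_apply]; simp

lemma Q_sgL {p r : Vv} (h : Sing p r) (c : F) (v : Vv) : Q (sgL p r c v) = Q v := by
  have e : c • (B v r • p - B v p • r) = (c * B v r) • p + (-(c * B v p)) • r := by
    ext i
    simp only [Pi.add_apply, Pi.smul_apply, Pi.sub_apply, smul_eq_mul]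
    ring
  rw [sgL_apply, e, Q_add, (h.comb _ _ (0 : F) (0 : F)).hp, B_add_right, B_smul_right, B_smul_right]
  ring

/-- the Siegel element -/
def sg {p r : Vv} (h : Sing p r) (c : F) : isometryGroup F (quadFormPlus k F) :=
  mkIso (sgL p r c) (sgL p r (-c))
    (fun v => by rw [sgL_comp h]; simp [sgL_zero])
    (fun v => by rw [sgL_comp h]; simp [sgL_zero])
    (Q_sgL h c)

lemma act_sg {p r : Vv} (h : Sing p r) (c : F) (v : Vv) :
    act (sg h c) v = v + c • (B v r • p - B v p • r) := by
  rw [sg, act_mkIso]; rfl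

lemma sg_mul {p r : Vv} (h : Sing p r) (c d : F) : sg h c * sg h d = sg h (c + d) := by
  apply iso_ext
  intro v
  rw [act_mul, sg, sg, sg, act_mkIso, act_mkIso, act_mkIso, sgL_comp h]

lemma sg_zero {p r : Vv} (h : Sing p r) : sg h 0 = 1 := by
  apply iso_ext
  intro v
  rw [sg, act_mkIso, act_one, sgL_zero]

lemma sg_inv {p r : Vv} (h : Sing p r) (c : F) : (sg h c)⁻¹ = sg h (-c) := by
  rw [inv_eq_iff_mul_eq_one, sg_mul, add_neg_cancel, sg_zero]

/-- the root group -/
def Tl {p r : Vv} (h : Sing p r) : Subgroup (isometryGroup F (quadFormPlus k F)) where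
  carrier := Set.range (sg h)
  mul_mem' := by
    rintro _ _ ⟨a, rfl⟩ ⟨b, rfl⟩
    exact ⟨a + b, (sg_mul h a b).symm⟩
  one_mem' := ⟨0, sg_zero h⟩
  inv_mem' := by
    rintro _ ⟨a, rfl⟩
    exact ⟨-a, (sg_inv h a).symm⟩

lemma sg_mem {p r : Vv} (h : Sing p r) (c : F) : sg h c ∈ Tl h := ⟨c, rfl⟩

lemma Tl_comm {p r : Vv} (h : Sing p r) : IsMulCommutative (Tl h) := by
  refine ⟨⟨?_⟩⟩
  rintro ⟨_, a, rfl⟩ ⟨_, b, rfl⟩
  apply Subtype.ext
  show sg h a * sg h b = sg h b * sg h a
  rw [sg_mul, sg_mul, add_comm]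

lemma conj_sg (g : isometryGroup F (quadFormPlus k F)) {p r : Vv} (h : Sing p r) (c : F) :
    g * sg h c * g⁻¹ = sg (h.act g) c := by
  apply iso_ext
  intro v
  rw [act_mul, act_mul, act_sg, act_sg, act_add, act_smul, act_act_inv, B_act_inv, B_act_inv]
  have e : ∀ (a b : F) (x y : Vv), act g (a • x - b • y) = a • act g x - b • act g y := by
    intro a b x y
    rw [sub_eq_add_neg, act_add, ← neg_smul, act_smul, act_smul, sub_eq_add_neg, neg_smul]
  rw [e]

lemma conjBy_Tl (g : isometryGroup F (quadFormPlus k F)) {p r : Vv} (h : Sing p r) :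
    conjBy (Tl h) g = Tl (h.act g) := by
  ext t
  constructor
  · rintro ⟨_, ⟨c, rfl⟩, rfl⟩
    exact ⟨c, (conj_sg g h c).symm⟩
  · rintro ⟨c, rfl⟩
    exact ⟨sg h c, sg_mem h c, conj_sg g h c⟩

/-- change of basis of the line -/
lemma sg_change {p r p' r' : Vv} (h : Sing p r) (h' : Sing p' r') {a b c d : F}
    (e1 : p' = a • p + b • r) (e2 : r' = c • p + d • r) (t : F) :
    sg h' t = sg h (t * (a * d - b * c)) := by
  apply iso_ext
  intro v
  rw [act_sg, act_sg, e1, e2]
  simp only [B_add_right, B_smul_right]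
  ext i
  simp only [Pi.add_apply, Pi.smul_apply, Pi.sub_apply, smul_eq_mul]
  ring

lemma Tl_change {p r p' r' : Vv} (h : Sing p r) (h' : Sing p' r') {a b c d : F}
    (e1 : p' = a • p + b • r) (e2 : r' = c • p + d • r) (hdet : a * d - b * c ≠ 0) :
    Tl h' = Tl h := by
  ext t
  constructor
  · rintro ⟨s, rfl⟩
    exact ⟨_, (sg_change h h' e1 e2 s).symm⟩
  · rintro ⟨s, rfl⟩
    refine ⟨s * (a * d - b * c)⁻¹, ?_⟩
    rw [sg_change h h' e1 e2]
    congr 1
    field_simp

lemma Sing.swap {p r : Vv} (h : Sing p r) : Sing r p := ⟨h.hr, h.hp, h.rp⟩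

lemma Tl_swap {p r : Vv} (h : Sing p r) : Tl h.swap = Tl h :=
  Tl_change h h.swap (a := 0) (b := 1) (c := 1) (d := 0) (by simp) (by simp) (by simp)

/-- rank zero -/
lemma sg_commute {p r p' r' : Vv} (h : Sing p r) (h' : Sing p' r') (e1 : B p p' = 0) (e2 : B p r' = 0)
    (e3 : B r p' = 0) (e4 : B r r' = 0) : ∀ a ∈ Tl h, ∀ b ∈ Tl h', a * b = b * a := by
  rintro _ ⟨s, rfl⟩ _ ⟨t, rfl⟩
  apply iso_ext
  intro v
  rw [act_mul, act_mul]
  have e5 : B p' r = 0 := by rw [B_comm, e3]
  have e6 : B r' r = 0 := by rw [B_comm, e4]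
  have e7 : B p' p = 0 := by rw [B_comm, e1]
  have e8 : B r' p = 0 := by rw [B_comm, e2]
  simp only [act_sg, B_add_left, B_smul_left, B_sub_left, e1, e2, e3, e4, e5, e6, e7, e8]
  ext i
  simp only [Pi.add_apply, Pi.smul_apply, Pi.sub_apply, smul_eq_mul]
  ring

/-- dual vectors for an independent pair -/
lemma exists_dual {p r : Vv} (hi : LinearIndependent F ![p, r]) :
    ∃ x y : Vv, B x p = 1 ∧ B x r = 0 ∧ B y p = 0 ∧ B y r = 1 := by
  have hpair := LinearIndependent.pair_iff.mp hi
  have hp0 : p ≠ 0 := by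
    rintro rfl
    have := hpair 1 0 (by simp)
    exact one_ne_zero this.1
  obtain ⟨v, hv⟩ := exists_ne_B hp0
  set v1 := (B v p)⁻¹ • v with hv1
  have h1 : B v1 p = 1 := by rw [hv1, B_smul_left]; exact inv_mul_cancel₀ hv
  set r1 := r - B v1 r • p with hr1
  have hr10 : r1 ≠ 0 := by
    intro e
    have e' : r = B v1 r • p := sub_eq_zero.mp (by rw [← hr1]; exact e)
    have := hpair (-(B v1 r)) 1 (by
      calc (-(B v1 r)) • p + (1 : F) • r = -(B v1 r • p) + r := by rw [neg_smul, one_smul]
        _ = 0 := neg_add_eq_zero.mpr e'.symm)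
    exact one_ne_zero this.2
  obtain ⟨w, hw⟩ := exists_ne_B hr10
  set y0 := w - B w p • v1 with hy0
  have h2 : B y0 p = 0 := by
    rw [hy0, B_sub_left, B_smul_left, h1]; ring
  have h3 : B y0 r ≠ 0 := by
    have e : B y0 r = B w r1 := by
      rw [hy0, hr1, B_sub_left, B_sub_right, B_smul_left, B_smul_right]; ring
    rw [e]; exact hw
  set y := (B y0 r)⁻¹ • y0 with hy
  have h4 : B y p = 0 := by rw [hy, B_smul_left, h2, mul_zero]
  have h5 : B y r = 1 := by rw [hy, B_smul_left]; exact inv_mul_cancel₀ h3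
  refine ⟨v1 - B v1 r • y, y, ?_, ?_, h4, h5⟩
  · rw [B_sub_left, B_smul_left (B v1 r) y p, h4, h1]; ring
  · rw [B_sub_left, B_smul_left (B v1 r) y r, h5]; ring

/-- the statement's closure -/
lemma set_eq {p r : Vv} (h : Sing p r) (hi : LinearIndependent F ![p, r]) :
    Subgroup.closure {σ : isometryGroup F (quadFormPlus k F) | ∀ v : Fin k ⊕ Fin k → F,
        Q (v + p) - Q v - Q p = 0 → Q (v + r) - Q v - Q r = 0 →
          ((σ : GL (Fin k ⊕ Fin k) F) : Matrix (Fin k ⊕ Fin k) (Fin k ⊕ Fin k) F) *ᵥ v = v} = Tl h := by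
  apply le_antisymm
  · rw [Subgroup.closure_le]
    intro σ hσ
    have hfix : ∀ v : Vv, B v p = 0 → B v r = 0 → act σ v = v := fun v h1 h2 => hσ v h1 h2
    obtain ⟨x, y, h1, h2, h3, h4⟩ := exists_dual hi
    have hdec : ∀ v : Vv, act σ v = v + B v p • (act σ x - x) + B v r • (act σ y - y) := by
      intro v
      set v0 := v - B v p • x - B v r • y with hv0
      have e0 : B v0 p = 0 := by
        rw [hv0, B_sub_left, B_sub_left, B_smul_left, B_smul_left, h1, h3]; ring
      have e1 : B v0 r = 0 := by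
        rw [hv0, B_sub_left, B_sub_left, B_smul_left, B_smul_left, h2, h4]; ring
      have e2 := hfix v0 e0 e1
      have e3 : v = v0 + B v p • x + B v r • y := by
        rw [hv0]; abel
      have e4 : act σ v = act σ v0 + B v p • act σ x + B v r • act σ y := by
        conv_lhs => rw [e3]
        rw [act_add, act_add, act_smul, act_smul]
      rw [e4, e2, hv0]
      ext i
      simp only [Pi.add_apply, Pi.smul_apply, Pi.sub_apply, smul_eq_mul]
      ring
    -- the differences lie in the line
    have hperp : ∀ u w : Vv, B w p = 0 → B w r = 0 → B (act σ u - u) w = 0 := by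
      intro u w hw1 hw2
      rw [B_sub_left]
      have := B_act σ u w
      rw [hfix w hw1 hw2] at this
      rw [this]; ring
    have hline : ∀ u : Vv, (∀ w : Vv, B w p = 0 → B w r = 0 → B u w = 0) → u = B u x • p + B u y • r := by
      intro u hu
      by_contra hne
      have hne' : u - B u x • p - B u y • r ≠ 0 := by
        intro e
        apply hne
        have e2 : u = (u - B u x • p - B u y • r) + B u x • p + B u y • r := by abel
        rw [e, zero_add] at e2
        exact e2
      obtain ⟨v, hv⟩ := exists_ne_B hne'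
      apply hv
      set v0 := v - B v p • x - B v r • y with hv0
      have e0 : B v0 p = 0 := by
        rw [hv0, B_sub_left, B_sub_left, B_smul_left, B_smul_left, h1, h3]; ring
      have e1 : B v0 r = 0 := by
        rw [hv0, B_sub_left, B_sub_left, B_smul_left, B_smul_left, h2, h4]; ring
      have e3 : v = v0 + B v p • x + B v r • y := by
        rw [hv0]; abel
      have hxu : B (u - B u x • p - B u y • r) x = 0 := by
        rw [B_sub_left, B_sub_left, B_smul_left, B_smul_left, B_comm p x, B_comm r x, h1, h2]; ring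
      have hyu : B (u - B u x • p - B u y • r) y = 0 := by
        rw [B_sub_left, B_sub_left, B_smul_left, B_smul_left, B_comm p y, B_comm r y, h3, h4]; ring
      have hvu : B (u - B u x • p - B u y • r) v0 = 0 := by
        rw [B_sub_left, B_sub_left, B_smul_left, B_smul_left, hu v0 e0 e1, B_comm p v0, B_comm r v0, e0, e1]; ring
      rw [B_comm, e3, B_add_right, B_add_right, B_smul_right, B_smul_right, hvu, hxu, hyu]; ring
    have ex := hline (act σ x - x) (fun w h5 h6 => hperp x w h5 h6)
    have ey := hline (act σ y - y) (fun w h5 h6 => hperp y w h5 h6)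
    set α := B (act σ x - x) x
    set β := B (act σ x - x) y
    set γ := B (act σ y - y) x
    set δ := B (act σ y - y) y
    -- the isometry condition
    have hQx := Q_act σ x
    have hQy := Q_act σ y
    have hQxy := Q_act σ (x + y)
    have eσx : act σ x = x + (α • p + β • r) := by rw [← ex]; abel
    have eσy : act σ y = y + (γ • p + δ • r) := by rw [← ey]; abel
    have hS := h.comb α β γ δ
    have hα : α = 0 := by
      rw [eσx, Q_add, hS.hp, B_add_right, B_smul_right, B_smul_right, h1, h2] at hQx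
      linear_combination hQx
    have hδ : δ = 0 := by
      rw [eσy, Q_add, hS.hr, B_add_right, B_smul_right, B_smul_right, h3, h4] at hQy
      linear_combination hQy
    have hβγ : β + γ = 0 := by
      rw [act_add, eσx, eσy] at hQxy
      have e5 : x + (α • p + β • r) + (y + (γ • p + δ • r)) = (x + y) + ((α • p + β • r) + (γ • p + δ • r)) := by abel
      rw [e5, Q_add, Q_add (α • p + β • r), hS.hp, hS.hr, hS.hpr] at hQxy
      simp only [B_add_left, B_add_right, B_smul_right, h1, h2, h3, h4] at hQxy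
      linear_combination hQxy - hα - hδ
    refine ⟨γ, ?_⟩
    apply iso_ext
    intro v
    rw [act_sg, hdec v, ex, ey, hα, hδ]
    have : β = -γ := by linear_combination hβγ
    rw [this]
    ext i
    simp only [Pi.add_apply, Pi.smul_apply, Pi.sub_apply, smul_eq_mul, zero_mul]
    ring
  · rintro _ ⟨c, rfl⟩
    apply Subgroup.subset_closure
    intro v h1 h2
    have h1' : B v p = 0 := h1
    have h2' : B v r = 0 := h2
    have e : act (sg h c) v = v := by
      rw [act_sg, h1', h2']; simp
    exact e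

lemma sg_ne_one {p r : Vv} (h : Sing p r) (hi : LinearIndependent F ![p, r]) {c : F} (hc : c ≠ 0) :
    sg h c ≠ 1 := by
  intro e
  obtain ⟨x, y, h1, h2, h3, h4⟩ := exists_dual hi
  have h5 := act_sg h c x
  rw [e, act_one, h1, h2] at h5
  have hpair := LinearIndependent.pair_iff.mp hi
  have hr0 : r ≠ 0 := by
    rintro rfl
    have := hpair 0 1 (by simp)
    exact one_ne_zero this.2
  have h6 : c • r = 0 := by
    have : x + c • ((0 : F) • p - (1 : F) • r) = x - c • r := by
      simp [sub_eq_add_neg]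
    rw [this] at h5
    have h7 : x - (x - c • r) = c • r := by abel
    rw [← h7, ← h5, sub_self]
  rcases smul_eq_zero.mp h6 with h7 | h7
  · exact hc h7
  · exact hr0 h7

lemma Tl_ne_bot {p r : Vv} (h : Sing p r) (hi : LinearIndependent F ![p, r]) : Tl h ≠ ⊥ := by
  intro e
  have h1 : sg h 1 ∈ Tl h := sg_mem h 1
  rw [e, Subgroup.mem_bot] at h1
  exact sg_ne_one h hi one_ne_zero h1

end Cfsg.Agent.Lib.SiegelRoot
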