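import Cfsg.Agent.Lib.SiegelRoot.Pair

/-!
Normal forms of pairs of singular lines and connectivity of the opposition graph.
-/

set_option autoImplicit false

namespace Cfsg.Agent.Lib.SiegelRoot

open Matrix Cfsg Cfsg.Agent.Lib.RootSubgroups.SL2Pair
open scoped MatrixGroups

variable {k : ℕ} {F : Type*} [Field F]

local notation "Q" => quadFormPlus k F
local notation "Vv" => (Fin k ⊕ Fin k → F)

lemma li_change {p r P R : Vv} (hi : LinearIndependent F ![p, r]) {a b c d : F}
    (e1 : P = a • p + b • r) (e2 : R = c • p + d • r) (hdet : a * d - b * c ≠ 0) :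
    LinearIndependent F ![P, R] := by
  rw [LinearIndependent.pair_iff] at hi ⊢
  intro s t hst
  have h1 := hi (s * a + t * c) (s * b + t * d) (by
    rw [← hst, e1, e2]
    ext i
    simp only [Pi.add_apply, Pi.smul_apply, smul_eq_mul]
    ring)
  obtain ⟨h2, h3⟩ := h1
  have hs : s * (a * d - b * c) = 0 := by linear_combination d * h2 - c * h3
  have ht : t * (a * d - b * c) = 0 := by linear_combination a * h3 - b * h2
  exact ⟨(mul_eq_zero.mp hs).resolve_right hdet, (mul_eq_zero.mp ht).resolve_right hdet⟩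

lemma li_left {p r : Vv} (hi : LinearIndependent F ![p, r]) : p ≠ 0 := by
  rintro rfl
  have := (LinearIndependent.pair_iff.mp hi) 1 0 (by simp)
  exact one_ne_zero this.1

lemma li_right {p r : Vv} (hi : LinearIndependent F ![p, r]) : r ≠ 0 := by
  rintro rfl
  have := (LinearIndependent.pair_iff.mp hi) 0 1 (by simp)
  exact one_ne_zero this.2

lemma li_swap {p r : Vv} (hi : LinearIndependent F ![p, r]) : LinearIndependent F ![r, p] :=
  li_change hi (a := 0) (b := 1) (c := 1) (d := 0) (by simp) (by simp) (by simp)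

/-- normal forms -/
def Normal {p r p' r' : Vv} (s : Sing p r) (s' : Sing p' r') : Prop :=
  (∃ P R P' R' : Fin k ⊕ Fin k → F, ∃ h : Opp P R P' R', Tl h.s = Tl s ∧ Tl h.s' = Tl s') ∨
  (∃ P R P' R' : Fin k ⊕ Fin k → F, ∃ h : Rk1 P R P' R', LinearIndependent F ![P, R] ∧
    LinearIndependent F ![P', R'] ∧ Tl h.s = Tl s ∧ Tl h.s' = Tl s')

lemma Normal.congr {p r p' r' a b a' b' : Vv} {s : Sing p r} {s' : Sing p' r'} {t : Sing a b} {t' : Sing a' b'}
    (e : Tl s = Tl t) (e' : Tl s' = Tl t') (h : Normal s s') : Normal t t' := by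
  rcases h with ⟨P, R, P', R', h, x, y⟩ | ⟨P, R, P', R', h, l, l', x, y⟩
  · exact Or.inl ⟨P, R, P', R', h, x.trans e, y.trans e'⟩
  · exact Or.inr ⟨P, R, P', R', h, l, l', x.trans e, y.trans e'⟩

lemma normal_core {p r p' r' : Vv} (s : Sing p r) (s' : Sing p' r') (hi : LinearIndependent F ![p, r])
    (hi' : LinearIndependent F ![p', r']) (hδ : B p p' ≠ 0) : Normal s s' := by
  set δ := B p p' with hδd
  set P' := δ⁻¹ • p' with hP'
  have e1 : B p P' = 1 := by rw [hP', B_smul_right, ← hδd]; exact inv_mul_cancel₀ hδ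
  set u := B r P' with hu
  set v := B p r' with hv
  set R := r - u • p with hR
  set R' := r' - v • P' with hR'
  have eP : p = (1 : F) • p + (0 : F) • r := by simp
  have eR : R = (-u) • p + (1 : F) • r := by
    rw [hR]; ext i; simp only [Pi.add_apply, Pi.sub_apply, Pi.smul_apply, smul_eq_mul]; ring
  have eP' : P' = δ⁻¹ • p' + (0 : F) • r' := by rw [hP']; simp
  have eR' : R' = (-(v * δ⁻¹)) • p' + (1 : F) • r' := by
    rw [hR', hP']; ext i; simp only [Pi.add_apply, Pi.sub_apply, Pi.smul_apply, smul_eq_mul]; ring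
  have sR : Sing p R := by
    have := s.comb 1 0 (-u) 1
    rwa [← eP, ← eR] at this
  have sR' : Sing P' R' := by
    have := s'.comb δ⁻¹ 0 (-(v * δ⁻¹)) 1
    rwa [← eP', ← eR'] at this
  have e2 : B p R' = 0 := by
    rw [hR', B_sub_right, B_smul_right, e1, ← hv]; ring
  have e3 : B R P' = 0 := by
    rw [hR, B_sub_left, B_smul_left, e1, ← hu]; ring
  have t1 : Tl sR = Tl s := Tl_change s sR eP eR (by simp)
  have hd1 : δ⁻¹ * 1 - 0 * (-(v * δ⁻¹)) ≠ 0 := by
    simpa using hδ
  have t2 : Tl sR' = Tl s' := Tl_change s' sR' eP' eR' hd1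
  have l1 : LinearIndependent F ![p, R] := li_change hi eP eR (by simp)
  have l2 : LinearIndependent F ![P', R'] := li_change hi' eP' eR' hd1
  by_cases hd : B R R' = 0
  · exact Or.inr ⟨p, R, P', R', ⟨sR, sR', e1, e2, e3, hd⟩, l1, l2, t1, t2⟩
  · set d := B R R' with hdd
    have eR'' : d⁻¹ • R' = (0 : F) • P' + d⁻¹ • R' := by simp
    have eP'' : P' = (1 : F) • P' + (0 : F) • R' := by simp
    have sR'' : Sing P' (d⁻¹ • R') := by
      have := sR'.comb 1 0 0 d⁻¹
      rwa [← eP'', ← eR''] at this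
    have t3 : Tl sR'' = Tl s' := by
      rw [← t2]
      exact Tl_change sR' sR'' eP'' eR'' (by simpa using hd)
    refine Or.inl ⟨p, R, P', d⁻¹ • R', ⟨sR, sR'', e1, ?_, e3, ?_⟩, t1, t3⟩
    · rw [B_smul_right, e2, mul_zero]
    · rw [B_smul_right, ← hdd]; exact inv_mul_cancel₀ hd

theorem normal_or_zero {p r p' r' : Vv} (s : Sing p r) (s' : Sing p' r') (hi : LinearIndependent F ![p, r])
    (hi' : LinearIndependent F ![p', r']) :
    (B p p' = 0 ∧ B p r' = 0 ∧ B r p' = 0 ∧ B r r' = 0) ∨ Normal s s' := by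
  by_cases h1 : B p p' = 0
  · by_cases h2 : B p r' = 0
    · by_cases h3 : B r p' = 0
      · by_cases h4 : B r r' = 0
        · exact Or.inl ⟨h1, h2, h3, h4⟩
        · exact Or.inr ((normal_core s.swap s'.swap (li_swap hi) (li_swap hi') h4).congr (Tl_swap s) (Tl_swap s'))
      · exact Or.inr ((normal_core s.swap s' (li_swap hi) hi' h3).congr (Tl_swap s) rfl)
    · exact Or.inr ((normal_core s s'.swap hi (li_swap hi') h2).congr rfl (Tl_swap s'))
  · exact Or.inr (normal_core s s' hi hi' h1)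

/-- an edge from a triangular pairing -/
theorem edge_of {u v p b : Vv} (s : Sing u v) (s' : Sing p b) (h1 : B u p ≠ 0) (h2 : B u b = 0)
    (h3 : B v b ≠ 0) : IsRankOnePair (Tl s) (Tl s') := by
  set A := (B u p)⁻¹ with hA
  set C := (B v b)⁻¹ with hC
  set P := A • p + (-(A * (B v p * C))) • b with hP
  set R := (0 : F) • p + C • b with hR
  have sn : Sing P R := s'.comb _ _ _ _
  have t : Tl sn = Tl s' := Tl_change s' sn rfl rfl (by
    have hA0 : A ≠ 0 := inv_ne_zero h1
    have hC0 : C ≠ 0 := inv_ne_zero h3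
    have : A * C - -(A * (B v p * C)) * 0 = A * C := by ring
    rw [this]
    exact mul_ne_zero hA0 hC0)
  have hO : Opp u v P R := by
    refine ⟨s, sn, ?_, ?_, ?_, ?_⟩
    · rw [hP, B_add_right, B_smul_right, B_smul_right, h2, hA]
      field_simp
      ring
    · rw [hR, B_add_right, B_smul_right, B_smul_right, h2]; ring
    · rw [hP, B_add_right, B_smul_right, B_smul_right, hA, hC]
      field_simp
      ring
    · rw [hR, B_add_right, B_smul_right, B_smul_right, hC]
      field_simp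
      ring
  rw [← t]
  exact hO.rank

/-- the family -/
def fam (k : ℕ) (F : Type*) [Field F] : Set (Subgroup (isometryGroup F (quadFormPlus k F))) :=
  {A | ∃ p r : Fin k ⊕ Fin k → F, LinearIndependent F ![p, r] ∧ ∃ h : Sing p r, A = Tl h}

lemma mem_fam {p r : Vv} (s : Sing p r) (hi : LinearIndependent F ![p, r]) : Tl s ∈ fam k F :=
  ⟨p, r, hi, s, rfl⟩

lemma exists_both {a b u x1 x2 : Vv} (h1 : B x1 a ≠ 0) (h2 : B x2 b ≠ 0) (h3 : B x1 u = 0) (h4 : B x2 u = 0) :
    ∃ x, B x u = 0 ∧ B x a ≠ 0 ∧ B x b ≠ 0 := by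
  by_cases h5 : B x1 b = 0
  · by_cases h6 : B x2 a = 0
    · refine ⟨x1 + x2, ?_, ?_, ?_⟩
      · rw [B_add_left, h3, h4, add_zero]
      · rw [B_add_left, h6, add_zero]; exact h1
      · rw [B_add_left, h5, zero_add]; exact h2
    · exact ⟨x2, h4, h6, h2⟩
  · exact ⟨x1, h3, h1, h5⟩

lemma Q_fix {x a : Vv} (ha : Q a = 0) (hx : B x a ≠ 0) : Q (x - (Q x * (B x a)⁻¹) • a) = 0 := by
  rw [sub_eq_add_neg, ← neg_smul, Q_add, Q_smul, ha, B_smul_right]
  field_simp
  ring

/-- lines with trivial pairing are connected through a common opposite line -/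
theorem conn_rank0 {p r p' r' : Vv} (s : Sing p r) (s' : Sing p' r') (hi : LinearIndependent F ![p, r])
    (hi' : LinearIndependent F ![p', r']) (e1 : B p p' = 0) (e2 : B p r' = 0) (e3 : B r p' = 0)
    (e4 : B r r' = 0) : Relation.ReflTransGen (FAdj (fam k F)) (Tl s) (Tl s') := by
  obtain ⟨x1, hx1⟩ := exists_ne_B (li_left hi)
  obtain ⟨x2, hx2⟩ := exists_ne_B (li_left hi')
  obtain ⟨u0, -, h1, h2⟩ := exists_both (u := 0) hx1 hx2 (by rw [B_comm, B_zero_left]) (by rw [B_comm, B_zero_left])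
  set c0 := Q u0 * (B u0 p)⁻¹ with hc0
  set u := u0 - c0 • p with hu
  have Qu : Q u = 0 := Q_fix s.hp h1
  have hu1 : B u p ≠ 0 := by
    have : B u p = B u0 p := by
      rw [hu, B_sub_left, B_smul_left, s.pp]; ring
    rw [this]; exact h1
  have hu2 : B u p' ≠ 0 := by
    have : B u p' = B u0 p' := by
      rw [hu, B_sub_left, B_smul_left, e1]; ring
    rw [this]; exact h2
  set c1 := B u r * (B u p)⁻¹ with hc1
  set c2 := B u r' * (B u p')⁻¹ with hc2
  set b1 := r - c1 • p with hb1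
  set b2 := r' - c2 • p' with hb2
  have eb1 : b1 = (-c1) • p + (1 : F) • r := by
    rw [hb1]; ext i; simp only [Pi.add_apply, Pi.sub_apply, Pi.smul_apply, smul_eq_mul]; ring
  have eb2 : b2 = (-c2) • p' + (1 : F) • r' := by
    rw [hb2]; ext i; simp only [Pi.add_apply, Pi.sub_apply, Pi.smul_apply, smul_eq_mul]; ring
  have ep : p = (1 : F) • p + (0 : F) • r := by simp
  have ep' : p' = (1 : F) • p' + (0 : F) • r' := by simp
  have sb1 : Sing p b1 := by
    have := s.comb 1 0 (-c1) 1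
    rwa [← ep, ← eb1] at this
  have sb2 : Sing p' b2 := by
    have := s'.comb 1 0 (-c2) 1
    rwa [← ep', ← eb2] at this
  have t1 : Tl sb1 = Tl s := Tl_change s sb1 ep eb1 (by simp)
  have t2 : Tl sb2 = Tl s' := Tl_change s' sb2 ep' eb2 (by simp)
  have l1 : LinearIndependent F ![p, b1] := li_change hi ep eb1 (by simp)
  have l2 : LinearIndependent F ![p', b2] := li_change hi' ep' eb2 (by simp)
  have hub1 : B u b1 = 0 := by
    rw [hb1, B_sub_right, B_smul_right, hc1]
    field_simp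
    ring
  have hub2 : B u b2 = 0 := by
    rw [hb2, B_sub_right, B_smul_right, hc2]
    field_simp
    ring
  have hbb : B b1 b2 = 0 := by
    rw [hb1, hb2]
    simp only [B_sub_left, B_sub_right, B_smul_left, B_smul_right, e1, e2, e3, e4]
    ring
  have lu1 : LinearIndependent F ![u, b1] := by
    rw [LinearIndependent.pair_iff]
    intro a t hat
    have h3 : B (a • u + t • b1) p = 0 := by rw [hat, B_zero_left]
    rw [B_add_left, B_smul_left, B_smul_left, B_comm b1 p, sb1.hpr, mul_zero, add_zero] at h3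
    have ha : a = 0 := (mul_eq_zero.mp h3).resolve_right hu1
    subst ha
    rw [zero_smul, zero_add] at hat
    exact ⟨rfl, (smul_eq_zero.mp hat).resolve_right (li_right l1)⟩
  have lu2 : LinearIndependent F ![u, b2] := by
    rw [LinearIndependent.pair_iff]
    intro a t hat
    have h3 : B (a • u + t • b2) p' = 0 := by rw [hat, B_zero_left]
    rw [B_add_left, B_smul_left, B_smul_left, B_comm b2 p', sb2.hpr, mul_zero, add_zero] at h3
    have ha : a = 0 := (mul_eq_zero.mp h3).resolve_right hu2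
    subst ha
    rw [zero_smul, zero_add] at hat
    exact ⟨rfl, (smul_eq_zero.mp hat).resolve_right (li_right l2)⟩
  obtain ⟨-, y1, -, -, d1, d2⟩ := exists_dual lu1
  obtain ⟨-, y2, -, -, d3, d4⟩ := exists_dual lu2
  obtain ⟨v0, hv0, hv1, hv2⟩ := exists_both (u := u) (x1 := y1) (x2 := y2) (a := b1) (b := b2)
    (by rw [d2]; exact one_ne_zero) (by rw [d4]; exact one_ne_zero) d1 d3
  set c3 := Q v0 * (B v0 b1)⁻¹ with hc3
  set v := v0 - c3 • b1 with hv
  have Qv : Q v = 0 := Q_fix sb1.hr hv1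
  have hvb1 : B v b1 ≠ 0 := by
    have : B v b1 = B v0 b1 := by
      rw [hv, B_sub_left, B_smul_left, sb1.rr]; ring
    rw [this]; exact hv1
  have hvb2 : B v b2 ≠ 0 := by
    have : B v b2 = B v0 b2 := by
      rw [hv, B_sub_left, B_smul_left, hbb]; ring
    rw [this]; exact hv2
  have hvu : B v u = 0 := by
    rw [hv, B_sub_left, B_smul_left, B_comm b1 u, hub1, hv0]; ring
  have su : Sing u v := ⟨Qu, Qv, by rw [B_comm]; exact hvu⟩
  have lu : LinearIndependent F ![u, v] := by
    rw [LinearIndependent.pair_iff]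
    intro a t hat
    have h3 : B (a • u + t • v) b1 = 0 := by rw [hat, B_zero_left]
    rw [B_add_left, B_smul_left, B_smul_left, hub1, mul_zero, zero_add] at h3
    have ht : t = 0 := (mul_eq_zero.mp h3).resolve_right hvb1
    subst ht
    rw [zero_smul, add_zero] at hat
    refine ⟨(smul_eq_zero.mp hat).resolve_right ?_, rfl⟩
    rintro hu0
    rw [hu0, B_zero_left] at hu1
    exact hu1 rfl
  have g1 := edge_of su sb1 hu1 hub1 hvb1
  have g2 := edge_of su sb2 hu2 hub2 hvb2
  rw [t1] at g1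
  rw [t2] at g2
  have a1 : FAdj (fam k F) (Tl s) (Tl su) := ⟨mem_fam s hi, mem_fam su lu, RankOnePair_symm g1⟩
  have a2 : FAdj (fam k F) (Tl su) (Tl s') := ⟨mem_fam su lu, mem_fam s' hi', g2⟩
  exact Relation.ReflTransGen.tail (Relation.ReflTransGen.single a1) a2

/-- coordinate subspace -/
def Ein (k : ℕ) (F : Type*) [Field F] : (Fin k → F) →ₗ[F] (Fin k ⊕ Fin k → F) where
  toFun x := Sum.elim x 0
  map_add' x y := by
    ext i
    rcases i with i | i <;> simp
  map_smul' c x := by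
    ext i
    rcases i with i | i <;> simp

/-- the other coordinate subspace -/
def Fim (k : ℕ) (F : Type*) [Field F] : (Fin k → F) →ₗ[F] (Fin k ⊕ Fin k → F) where
  toFun x := Sum.elim 0 x
  map_add' x y := by
    ext i
    rcases i with i | i <;> simp
  map_smul' c x := by
    ext i
    rcases i with i | i <;> simp

lemma Ein_inl (x : Fin k → F) (i : Fin k) : Ein k F x (.inl i) = x i := rfl
lemma Ein_inr (x : Fin k → F) (i : Fin k) : Ein k F x (.inr i) = 0 := rfl
lemma Fim_inl (x : Fin k → F) (i : Fin k) : Fim k F x (.inl i) = 0 := rfl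
lemma Fim_inr (x : Fin k → F) (i : Fin k) : Fim k F x (.inr i) = x i := rfl

lemma Q_Ein (x : Fin k → F) : Q (Ein k F x) = 0 := by
  simp [quadFormPlus, Ein_inr]

lemma Q_Fim (x : Fin k → F) : Q (Fim k F x) = 0 := by
  simp [quadFormPlus, Fim_inl]

lemma B_Ein_Ein (x y : Fin k → F) : B (Ein k F x) (Ein k F y) = 0 := by
  simp [B_apply, Ein_inr]

lemma Ein_eq_Fim {x y : Fin k → F} (h : Ein k F x = Fim k F y) : x = 0 ∧ y = 0 := by
  constructor
  · funext i
    have := congrFun h (.inl i)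
    rwa [Ein_inl, Fim_inl] at this
  · funext i
    have := congrFun h (.inr i)
    rw [Ein_inr, Fim_inr] at this
    exact this.symm

lemma Ein_ne {x : Fin k → F} (h : x ≠ 0) : Ein k F x ≠ 0 := by
  intro e
  apply h
  funext i
  have := congrFun e (.inl i)
  rwa [Ein_inl] at this

lemma Fim_ne {x : Fin k → F} (h : x ≠ 0) : Fim k F x ≠ 0 := by
  intro e
  apply h
  funext i
  have := congrFun e (.inr i)
  rwa [Fim_inr] at this

lemma ker2 (f g : (Fin k → F) →ₗ[F] F) (hk : 3 ≤ k) : ∃ x : Fin k → F, x ≠ 0 ∧ f x = 0 ∧ g x = 0 := by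
  have h := LinearMap.ker_ne_bot_of_finrank_lt (f := f.prod g) (by
    rw [Module.finrank_prod, Module.finrank_self, Module.finrank_fin_fun]
    omega)
  obtain ⟨x, hx, hx0⟩ := Submodule.exists_mem_ne_zero_of_ne_bot h
  have h2 := LinearMap.mem_ker.mp hx
  exact ⟨x, hx0, congrArg Prod.fst h2, congrArg Prod.snd h2⟩

/-- a further singular point perpendicular to a singular line -/
theorem exists_perp {p r : Vv} (s : Sing p r) (hk : 3 ≤ k) :
    ∃ z : Fin k ⊕ Fin k → F, Q z = 0 ∧ B z p = 0 ∧ B z r = 0 ∧ ∀ a b : F, z ≠ a • p + b • r := by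
  obtain ⟨x1, hx1, h1, h2⟩ := ker2 (Bf p ∘ₗ Ein k F) (Bf r ∘ₗ Ein k F) hk
  by_cases c1 : ∀ a b : F, Ein k F x1 ≠ a • p + b • r
  · exact ⟨_, Q_Ein _, h1, h2, c1⟩
  push Not at c1
  obtain ⟨a1, b1, e1⟩ := c1
  obtain ⟨y2, hy2, h3, h4⟩ := ker2 (Bf p ∘ₗ Fim k F) (Bf r ∘ₗ Fim k F) hk
  by_cases c2 : ∀ a b : F, Fim k F y2 ≠ a • p + b • r
  · exact ⟨_, Q_Fim _, h3, h4, c2⟩
  push Not at c2
  obtain ⟨a2, b2, e2⟩ := c2
  have hx1' := Ein_ne hx1
  have hy2' := Fim_ne hy2
  have hΔ : a1 * b2 - b1 * a2 ≠ 0 := by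
    intro hΔ
    have k1 : Ein k F (b2 • x1) = Fim k F (b1 • y2) := by
      rw [map_smul, map_smul, e1, e2]
      ext j
      simp only [Pi.add_apply, Pi.smul_apply, smul_eq_mul]
      linear_combination (p j) * hΔ
    have k2 : Ein k F (a2 • x1) = Fim k F (a1 • y2) := by
      rw [map_smul, map_smul, e1, e2]
      ext j
      simp only [Pi.add_apply, Pi.smul_apply, smul_eq_mul]
      linear_combination (-r j) * hΔ
    obtain ⟨k3, k4⟩ := Ein_eq_Fim k1
    obtain ⟨k5, k6⟩ := Ein_eq_Fim k2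
    have hb2 : b2 = 0 := (smul_eq_zero.mp k3).resolve_right hx1
    have hb1 : b1 = 0 := (smul_eq_zero.mp k4).resolve_right hy2
    have ha2 : a2 = 0 := (smul_eq_zero.mp k5).resolve_right hx1
    have ha1 : a1 = 0 := (smul_eq_zero.mp k6).resolve_right hy2
    apply hx1'
    rw [e1, ha1, hb1]
    simp
  obtain ⟨i, hi⟩ := Function.ne_iff.mp hx1
  obtain ⟨x3, hx3, h5, h6⟩ := ker2 (Bf (Fim k F y2) ∘ₗ Ein k F) (LinearMap.proj i) hk
  have h5' : B (Ein k F x3) (Fim k F y2) = 0 := h5
  have h6' : x3 i = 0 := h6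
  have h7 : B (Ein k F x3) (Ein k F x1) = 0 := B_Ein_Ein _ _
  rw [e1, B_add_right, B_smul_right, B_smul_right] at h7
  rw [e2, B_add_right, B_smul_right, B_smul_right] at h5'
  set A := B (Ein k F x3) p with hA
  set C := B (Ein k F x3) r with hC
  have hA0 : A = 0 := by
    have : A * (a1 * b2 - b1 * a2) = 0 := by linear_combination b2 * h7 - b1 * h5'
    exact (mul_eq_zero.mp this).resolve_right hΔ
  have hC0 : C = 0 := by
    have : C * (a1 * b2 - b1 * a2) = 0 := by linear_combination a1 * h5' - a2 * h7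
    exact (mul_eq_zero.mp this).resolve_right hΔ
  refine ⟨Ein k F x3, Q_Ein _, hA0, hC0, ?_⟩
  intro a b e
  have hkey : Ein k F ((a1 * b2 - b1 * a2) • x3 - (a * b2 - b * a2) • x1) =
      Fim k F ((b * a1 - a * b1) • y2) := by
    rw [map_sub, map_smul, map_smul, map_smul, e, e1, e2]
    ext j
    simp only [Pi.add_apply, Pi.sub_apply, Pi.smul_apply, smul_eq_mul]
    ring
  obtain ⟨k1, -⟩ := Ein_eq_Fim hkey
  have k2 := congrFun k1 i
  simp only [Pi.sub_apply, Pi.smul_apply, smul_eq_mul, h6', mul_zero, zero_sub, Pi.zero_apply, neg_eq_zero] at k2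
  have k3 : a * b2 - b * a2 = 0 := (mul_eq_zero.mp k2).resolve_right hi
  rw [k3, zero_smul, sub_zero] at k1
  exact hx3 ((smul_eq_zero.mp k1).resolve_left hΔ)

/-- rank one pairs are connected -/
theorem conn_rank1 {P R P' R' : Vv} (h : Rk1 P R P' R') (l : LinearIndependent F ![P, R])
    (l' : LinearIndependent F ![P', R']) (hk : 3 ≤ k) :
    Relation.ReflTransGen (FAdj (fam k F)) (Tl h.s) (Tl h.s') := by
  by_cases hdep : LinearIndependent F ![R', R]
  · exact (conn_rank0 h.s h.s3 l hdep h.e2 h.s.hpr h.e4 h.s.rr).trans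
      (conn_rank0 h.s3 h.s' hdep l' h.s'.rp h.s'.rr h.e3 h.e4)
  · have hR0 := li_right l
    rw [LinearIndependent.pair_iff] at hdep
    push Not at hdep
    obtain ⟨a, t, hat, hne⟩ := hdep
    have ha : a ≠ 0 := by
      rintro rfl
      rw [zero_smul, zero_add] at hat
      exact hne rfl ((smul_eq_zero.mp hat).resolve_right hR0)
    have eR' : R' = (-(t * a⁻¹)) • R := by
      have e0 : a • R' = (-t) • R := by
        rw [neg_smul]
        exact eq_neg_of_add_eq_zero_left hat
      have e1 : R' = a⁻¹ • (a • R') := by rw [smul_smul, inv_mul_cancel₀ ha, one_smul]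
      rw [e1, e0, smul_smul]
      congr 1
      ring
    obtain ⟨z, hz, hzP, hzR, hzn⟩ := exists_perp h.s hk
    set β := B z P' with hβ
    set w := z - β • P with hw
    have Qw : Q w = 0 := by
      rw [hw, sub_eq_add_neg, ← neg_smul, Q_add, Q_smul, h.s.hp, hz, B_smul_right, hzP]; ring
    have hwP : B w P = 0 := by
      rw [hw, B_sub_left, B_smul_left, hzP, h.s.pp]; ring
    have hwR : B w R = 0 := by
      rw [hw, B_sub_left, B_smul_left, hzR, h.s.hpr]; ring
    have hwP' : B w P' = 0 := by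
      rw [hw, B_sub_left, B_smul_left, h.e1, ← hβ]; ring
    have hwR' : B w R' = 0 := by
      rw [eR', B_smul_right, hwR, mul_zero]
    have s4 : Sing R w := ⟨h.s.hr, Qw, by rw [B_comm]; exact hwR⟩
    have l4 : LinearIndependent F ![R, w] := by
      rw [LinearIndependent.pair_iff]
      intro c d hcd
      by_cases hd : d = 0
      · subst hd
        rw [zero_smul, add_zero] at hcd
        exact ⟨(smul_eq_zero.mp hcd).resolve_right hR0, rfl⟩
      · exfalso
        apply hzn β (-(c * d⁻¹))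
        have e0 : d • w = -(c • R) := eq_neg_of_add_eq_zero_right hcd
        have e1 : w = d⁻¹ • (d • w) := by rw [smul_smul, inv_mul_cancel₀ hd, one_smul]
        have e2 : z = w + β • P := by rw [hw]; abel
        rw [e2, e1, e0]
        ext j
        simp only [Pi.add_apply, Pi.neg_apply, Pi.smul_apply, smul_eq_mul]
        ring
    exact (conn_rank0 h.s s4 l l4 h.s.hpr (by rw [B_comm]; exact hwP) h.s.rr (by rw [B_comm]; exact hwR)).trans
      (conn_rank0 s4 h.s' l4 l' h.e3 h.e4 hwP' hwR')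

/-- connectivity of the whole family -/
theorem connected_fam (hk : 3 ≤ k) : IsConnectedFamily (FAdj (fam k F)) (fam k F) := by
  rintro _ ⟨p, r, hi, s, rfl⟩ _ ⟨p', r', hi', s', rfl⟩
  rcases normal_or_zero s s' hi hi' with ⟨e1, e2, e3, e4⟩ | ⟨P, R, P', R', h, a, b⟩ | ⟨P, R, P', R', h, l, l', a, b⟩
  · exact conn_rank0 s s' hi hi' e1 e2 e3 e4
  · refine Relation.ReflTransGen.single ⟨mem_fam s hi, mem_fam s' hi', ?_⟩
    rw [← a, ← b]
    exact h.rank
  · rw [← a, ← b]
    exact conn_rank1 h l l' hk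

end Cfsg.Agent.Lib.SiegelRoot
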