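import Cfsg.Agent.Lib.SiegelRoot.Conn
import Cfsg.Agent.Lib.UnitRoot.Main

/-!
Siegel transvection groups: assembly inside the generated subgroup.
-/

set_option autoImplicit false

namespace Cfsg.Agent.Lib.SiegelRoot

open Matrix Cfsg Cfsg.Agent.Lib.RootSubgroups.SL2Pair Cfsg.Agent.Lib.RootSubgroups
  Cfsg.Agent.Lib.UnitRoot
open scoped MatrixGroups

section generic

variable {X : Type*} [Group X]

/-- the commutator case inside a subgroup -/
lemma rootComm_subOf {A B C G₀ : Subgroup X} (hA : A ≤ G₀) (hB : B ≤ G₀) (hC : C ≤ G₀)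
    {S : Set (Subgroup G₀)} (hCS : C.subgroupOf G₀ ∈ S)
    (h₁ : ∀ a ∈ A, ∀ b ∈ B, a * b * a⁻¹ * b⁻¹ ∈ C)
    (h₂ : ∀ a ∈ A, a ≠ 1 → ∀ c ∈ C, ∃ b ∈ B, a * b * a⁻¹ * b⁻¹ = c)
    (h₃ : ∀ b ∈ B, b ≠ 1 → ∀ c ∈ C, ∃ a ∈ A, a * b * a⁻¹ * b⁻¹ = c)
    (hcA : ∀ c ∈ C, ∀ a ∈ A, c * a = a * c) (hcB : ∀ c ∈ C, ∀ b ∈ B, c * b = b * c)
    (hne : A ≠ ⊥) : RootCommutatorCase S (A.subgroupOf G₀) (B.subgroupOf G₀) := by
  have hmem : ∀ a : G₀, ∀ b : G₀, a.1 ∈ A → b.1 ∈ B → a * b * a⁻¹ * b⁻¹ ∈ C.subgroupOf G₀ := by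
    intro a b ha hb
    exact h₁ a.1 ha b.1 hb
  have heq : ⁅A.subgroupOf G₀, B.subgroupOf G₀⁆ = C.subgroupOf G₀ := by
    apply le_antisymm
    · rw [Subgroup.commutator_le]
      intro a ha b hb
      rw [commutatorElement_def]
      exact hmem a b ha hb
    · intro c hc
      obtain ⟨a0, ha0, ha1⟩ : ∃ a0 : G₀, a0 ∈ A.subgroupOf G₀ ∧ a0 ≠ 1 := by
        obtain ⟨a, ha⟩ := Subgroup.ne_bot_iff_exists_ne_one.mp (subOf_ne_bot hA hne)
        exact ⟨a.1, a.2, fun e => ha (Subtype.ext e)⟩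
      obtain ⟨b, hb, e⟩ := h₂ a0.1 ha0 (fun e => ha1 (Subtype.ext e)) c.1 hc
      have e2 : c = a0 * (⟨b, hB hb⟩ : G₀) * a0⁻¹ * (⟨b, hB hb⟩ : G₀)⁻¹ := by
        apply Subtype.ext
        exact e.symm
      rw [e2, ← commutatorElement_def]
      have hb' : (⟨b, hB hb⟩ : G₀) ∈ B.subgroupOf G₀ := hb
      exact Subgroup.commutator_mem_commutator ha0 hb'
  refine ⟨?_, ?_, ?_, ?_⟩
  · rw [heq]; exact hCS
  · rw [heq]
    intro c hc x hx
    have hle : A.subgroupOf G₀ ⊔ B.subgroupOf G₀ ≤ Subgroup.centralizer (C.subgroupOf G₀ : Set G₀) := by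
      apply sup_le
      · intro a ha
        rw [Subgroup.mem_centralizer_iff]
        intro c hc
        apply Subtype.ext
        exact hcA c.1 hc a.1 ha
      · intro b hb
        rw [Subgroup.mem_centralizer_iff]
        intro c hc
        apply Subtype.ext
        exact hcB c.1 hc b.1 hb
    exact (Subgroup.mem_centralizer_iff.mp (hle hx)) c hc
  · intro a ha ha1
    rw [heq]
    apply le_antisymm
    · rw [Subgroup.closure_le]
      rintro _ ⟨b, hb, rfl⟩
      exact hmem a b ha hb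
    · intro c hc
      obtain ⟨b, hb, e⟩ := h₂ a.1 ha (fun e => ha1 (Subtype.ext e)) c.1 hc
      apply Subgroup.subset_closure
      exact ⟨⟨b, hB hb⟩, hb, Subtype.ext e⟩
  · intro b hb hb1
    rw [heq]
    apply le_antisymm
    · rw [Subgroup.closure_le]
      rintro _ ⟨a, ha, rfl⟩
      exact hmem a b ha hb
    · intro c hc
      obtain ⟨a, ha, e⟩ := h₃ b.1 hb (fun e => hb1 (Subtype.ext e)) c.1 hc
      apply Subgroup.subset_closure
      exact ⟨⟨a, hA ha⟩, ha, Subtype.ext e⟩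

end generic

variable {k : ℕ} {F : Type*} [Field F]

local notation "Q" => quadFormPlus k F
local notation "Vv" => (Fin k ⊕ Fin k → F)

/-- the generated subgroup -/
abbrev G0 (k : ℕ) (F : Type*) [Field F] : Subgroup (isometryGroup F (quadFormPlus k F)) :=
  ⨆ B ∈ fam k F, B

/-- the family inside the generated subgroup -/
abbrev famS (k : ℕ) (F : Type*) [Field F] : Set (Subgroup (G0 k F)) :=
  (fun A : Subgroup (isometryGroup F (quadFormPlus k F)) => A.subgroupOf (G0 k F)) '' fam k F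

lemma Tl_le {p r : Vv} (s : Sing p r) (hi : LinearIndependent F ![p, r]) : Tl s ≤ G0 k F :=
  le_iSup₂_of_le (Tl s) (mem_fam s hi) le_rfl

lemma mem_famS {p r : Vv} (s : Sing p r) (hi : LinearIndependent F ![p, r]) :
    (Tl s).subgroupOf (G0 k F) ∈ famS k F := ⟨_, mem_fam s hi, rfl⟩

lemma comm_S {p r p' r' : Vv} (s : Sing p r) (s' : Sing p' r')
    (h : ∀ a ∈ Tl s, ∀ b ∈ Tl s', a * b = b * a) :
    ⁅(Tl s).subgroupOf (G0 k F), (Tl s').subgroupOf (G0 k F)⁆ = ⊥ := by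
  apply commutator_eq_bot_of_commute
  intro a ha b hb
  apply Subtype.ext
  exact h a.1 ha b.1 hb

lemma rk1_case {P R P' R' : Vv} (h : Rk1 P R P' R') (l : LinearIndependent F ![P, R])
    (l' : LinearIndependent F ![P', R']) (li3 : LinearIndependent F ![R', R]) :
    RootCommutatorCase (famS k F) ((Tl h.s).subgroupOf (G0 k F)) ((Tl h.s').subgroupOf (G0 k F)) := by
  apply rootComm_subOf (Tl_le h.s l) (Tl_le h.s' l') (Tl_le h.s3 li3) (mem_famS h.s3 li3)
  · rintro _ ⟨s, rfl⟩ _ ⟨t, rfl⟩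
    rw [h.commutator]
    exact sg_mem _ _
  · rintro _ ⟨s, rfl⟩ ha _ ⟨u, rfl⟩
    have hs : s ≠ 0 := by
      rintro rfl
      exact ha (sg_zero _)
    refine ⟨sg h.s' (u * s⁻¹), sg_mem _ _, ?_⟩
    rw [h.commutator]
    congr 1
    field_simp
  · rintro _ ⟨t, rfl⟩ hb _ ⟨u, rfl⟩
    have ht : t ≠ 0 := by
      rintro rfl
      exact hb (sg_zero _)
    refine ⟨sg h.s (u * t⁻¹), sg_mem _ _, ?_⟩
    rw [h.commutator]
    congr 1
    field_simp
  · exact h.comm3_left
  · exact h.comm3_right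
  · exact Tl_ne_bot h.s l

lemma dep_of_not_li {P R P' R' : Vv} (h : Rk1 P R P' R') (l : LinearIndependent F ![P, R])
    (li3 : ¬ LinearIndependent F ![R', R]) : ∀ a ∈ Tl h.s, ∀ b ∈ Tl h.s', a * b = b * a := by
  have hR0 := li_right l
  rw [LinearIndependent.pair_iff] at li3
  push Not at li3
  obtain ⟨a, t, hat, hne⟩ := li3
  have ha : a ≠ 0 := by
    rintro rfl
    rw [zero_smul, zero_add] at hat
    exact hne rfl ((smul_eq_zero.mp hat).resolve_right hR0)
  have eR' : R' = (-(t * a⁻¹)) • R := by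
    have e0 : a • R' = (-t) • R := by
      rw [neg_smul]
      exact eq_neg_of_add_eq_zero_left hat
    have e1 : R' = a⁻¹ • (a • R') := by rw [smul_smul, inv_mul_cancel₀ ha, one_smul]
    rw [e1, e0, smul_smul]
    congr 1
    ring
  exact h.commute_of_dep eR'

theorem rootSet_famS : IsRootSubgroupSet (famS k F) where
  commutative := by
    rintro _ ⟨_, ⟨p, r, hi, s, rfl⟩, rfl⟩
    exact comm_subOf _ (Tl_comm s)
  ne_bot := by
    rintro _ ⟨_, ⟨p, r, hi, s, rfl⟩, rfl⟩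
    exact subOf_ne_bot (Tl_le s hi) (Tl_ne_bot s hi)
  generates := iSup_subOf _
  conj_mem := by
    rintro _ ⟨_, ⟨p, r, hi, s, rfl⟩, rfl⟩ g
    show conjBy ((Tl s).subgroupOf (G0 k F)) g ∈ famS k F
    rw [conjBy_subOf, conjBy_Tl]
    have hli : LinearIndependent F ![act (g : isometryGroup F (quadFormPlus k F)) p, act (g : isometryGroup F (quadFormPlus k F)) r] := by
      rw [LinearIndependent.pair_iff] at hi ⊢
      intro a b hab
      apply hi
      have := congrArg (act (g : isometryGroup F (quadFormPlus k F))⁻¹) hab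
      rw [act_add, act_smul, act_smul, act_inv_act, act_inv_act] at this
      rw [this]
      exact mulVec_zero _
    exact mem_famS _ hli
  pair := by
    rintro _ ⟨_, ⟨p, r, hi, s, rfl⟩, rfl⟩ _ ⟨_, ⟨p', r', hi', s', rfl⟩, rfl⟩
    rcases normal_or_zero s s' hi hi' with ⟨e1, e2, e3, e4⟩ | ⟨P, R, P', R', h, a, b⟩ | ⟨P, R, P', R', h, l, l', a, b⟩
    · left
      exact comm_S s s' (sg_commute s s' e1 e2 e3 e4)
    · right; left
      show IsRankOnePair ((Tl s).subgroupOf (G0 k F)) ((Tl s').subgroupOf (G0 k F))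
      rw [← a, ← b]
      exact rankOne_subOf (a.le.trans (Tl_le s hi)) (b.le.trans (Tl_le s' hi')) (Tl_comm _) (Tl_comm _) h.rank
    · show _ ∨ _ ∨ RootCommutatorCase _ ((Tl s).subgroupOf (G0 k F)) ((Tl s').subgroupOf (G0 k F))
      show ⁅(Tl s).subgroupOf (G0 k F), (Tl s').subgroupOf (G0 k F)⁆ = ⊥ ∨ _ ∨ _
      rw [← a, ← b]
      by_cases li3 : LinearIndependent F ![R', R]
      · exact Or.inr (Or.inr (rk1_case h l l' li3))
      · exact Or.inl (comm_S h.s h.s' (dep_of_not_li h l li3))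

theorem kRoot_famS : IsKRootSubgroupSet F (famS k F) := by
  refine ⟨rootSet_famS, ?_⟩
  rintro _ ⟨_, ⟨p, r, hi, s, rfl⟩, rfl⟩ _ ⟨_, ⟨p', r', hi', s', rfl⟩, rfl⟩ hpair
  have hpair' : IsRankOnePair ((Tl s).subgroupOf (G0 k F)) ((Tl s').subgroupOf (G0 k F)) := hpair
  show IsPSL2PairOver F ((Tl s).subgroupOf (G0 k F)) ((Tl s').subgroupOf (G0 k F))
  rcases normal_or_zero s s' hi hi' with ⟨e1, e2, e3, e4⟩ | ⟨P, R, P', R', h, a, b⟩ | ⟨P, R, P', R', h, l, l', a, b⟩
  · exact absurd (comm_S s s' (sg_commute s s' e1 e2 e3 e4)) (IsRankOnePair.commutator_ne_bot hpair')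
  · rw [← a, ← b]
    exact psl2_subOf (a.le.trans (Tl_le s hi)) (b.le.trans (Tl_le s' hi')) h.psl2
  · rw [← a, ← b] at hpair'
    by_cases li3 : LinearIndependent F ![R', R]
    · have hc := rk1_case h l l' li3
      have hS := rootSet_famS (k := k) (F := F)
      have ma : (Tl h.s).subgroupOf (G0 k F) ∈ famS k F := mem_famS h.s l
      have mb : (Tl h.s').subgroupOf (G0 k F) ∈ famS k F := mem_famS h.s' l'
      exact (not_rankOne_of_commutator_mem hS ma mb hpair' hc.1).elim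
    · exact absurd (comm_S h.s h.s' (dep_of_not_li h l li3)) (IsRankOnePair.commutator_ne_bot hpair')

/-- assembled statement -/
theorem main_of_fam {m : ℕ} {S : Set (Subgroup (isometryGroup F (quadFormPlus (m + 3) F)))}
    (hS : S = fam (m + 3) F) :
    IsKRootSubgroupSet F ((fun A : Subgroup (isometryGroup F (quadFormPlus (m + 3) F)) => A.subgroupOf (⨆ B ∈ S, B)) '' S) ∧
    IsConnectedFamily (FAdj S) S := by
  subst hS
  exact ⟨kRoot_famS, connected_fam (by omega)⟩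

end Cfsg.Agent.Lib.SiegelRoot
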