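import Cfsg.Agent.Lib.SiegelRoot.Basic

/-!
Pairs of Siegel root groups: opposite pairs give `SL₂`, rank one pairs give the commutator relation.
-/

set_option autoImplicit false

namespace Cfsg.Agent.Lib.SiegelRoot

open Matrix Cfsg Cfsg.Agent.Lib.RootSubgroups.SL2Pair
open scoped MatrixGroups

variable {k : ℕ} {F : Type*} [Field F]

local notation "Q" => quadFormPlus k F
local notation "Vv" => (Fin k ⊕ Fin k → F)

/-- normalized opposite lines -/
structure Opp (p r p' r' : Fin k ⊕ Fin k → F) : Prop where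
  s : Sing p r
  s' : Sing p' r'
  e1 : B p p' = 1
  e2 : B p r' = 0
  e3 : B r p' = 0
  e4 : B r r' = 1

variable {p r p' r' : Fin k ⊕ Fin k → F}

lemma Opp.symm (h : Opp p r p' r') : Opp p' r' p r :=
  ⟨h.s', h.s, by rw [B_comm]; exact h.e1, by rw [B_comm]; exact h.e3, by rw [B_comm]; exact h.e2,
    by rw [B_comm]; exact h.e4⟩

lemma Opp.r'_ne (h : Opp p r p' r') : r' ≠ 0 := by
  rintro rfl
  have := h.e4
  rw [B_comm, B_zero_left] at this
  exact zero_ne_one this

lemma Opp.cond (h : Opp p r p' r') : RankOneCondition (Tl h.s) (Tl h.s') := by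
  rintro _ ⟨s, rfl⟩ hx
  have hs : s ≠ 0 := by
    rintro rfl
    exact hx (sg_zero _)
  set t : F := -s⁻¹ with ht
  have ht0 : t ≠ 0 := neg_ne_zero.mpr (inv_ne_zero hs)
  have hts : t * s = -1 := by rw [ht]; field_simp
  refine ⟨sg h.s' t, sg_mem _ t, ?_, ?_⟩
  · intro e
    have h1 := act_sg h.s' t p
    rw [e, act_one, h.e2, h.e1] at h1
    have h2 : t • r' = 0 := by
      have h3 : p + t • ((0 : F) • p' - (1 : F) • r') = p - t • r' := by
        simp [sub_eq_add_neg]
      rw [h3] at h1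
      have h4 : p - (p - t • r') = t • r' := by abel
      rw [← h4, ← h1, sub_self]
    rcases smul_eq_zero.mp h2 with h3 | h3
    · exact ht0 h3
    · exact h.r'_ne h3
  · rw [conjBy_Tl, conjBy_Tl]
    have v1 : act (sg h.s' t)⁻¹ p = p + t • r' := by
      rw [sg_inv, act_sg, h.e2, h.e1]
      ext i; simp
    have v2 : act (sg h.s' t)⁻¹ r = r - t • p' := by
      rw [sg_inv, act_sg, h.e4, h.e3]
      ext i; simp [sub_eq_add_neg]
    have e5 : B p' r = 0 := by rw [B_comm]; exact h.e3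
    have e6 : B p' p = 1 := by rw [B_comm]; exact h.e1
    have e7 : B r' r = 1 := by rw [B_comm]; exact h.e4
    have e8 : B r' p = 0 := by rw [B_comm]; exact h.e2
    have v3 : act (sg h.s s)⁻¹ p' = p' + s • r := by
      rw [sg_inv, act_sg, e5, e6]
      ext i; simp
    have v4 : act (sg h.s s)⁻¹ r' = r' - s • p := by
      rw [sg_inv, act_sg, e7, e8]
      ext i; simp [sub_eq_add_neg]
    refine Tl_change (h.s'.act _) (h.s.act _) (a := 0) (b := t) (c := -t) (d := 0) ?_ ?_ ?_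
    · rw [v1, v3, v4]
      ext i
      simp only [Pi.add_apply, Pi.smul_apply, Pi.sub_apply, smul_eq_mul]
      linear_combination (p i) * hts
    · rw [v2, v3, v4]
      ext i
      simp only [Pi.add_apply, Pi.smul_apply, Pi.sub_apply, smul_eq_mul]
      linear_combination (r i) * hts
    · have : (0 : F) * 0 - t * -t = t * t := by ring
      rw [this]
      exact mul_ne_zero ht0 ht0

lemma Opp.ne (h : Opp p r p' r') : Tl h.s ≠ Tl h.s' := by
  intro e
  have h1 : sg h.s' 1 ∈ Tl h.s := by rw [e]; exact sg_mem _ 1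
  obtain ⟨c, hc⟩ := h1
  have h2 := congrArg (fun g => act g p) hc
  simp only [act_sg, h.s.pp, h.s.hpr, h.e1, h.e2] at h2
  have h3 : p + c • ((0 : F) • p - (0 : F) • r) = p := by simp
  have h4 : p + (1 : F) • ((0 : F) • p' - (1 : F) • r') = p - r' := by
    simp [sub_eq_add_neg]
  rw [h3, h4] at h2
  apply h.r'_ne
  have h5 : p - (p - r') = r' := by abel
  rw [← h5, ← h2, sub_self]

theorem Opp.rank (h : Opp p r p' r') : IsRankOnePair (Tl h.s) (Tl h.s') where
  ne := h.ne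
  nilpotent_left := isNilpotent_of_comm (Tl_comm h.s)
  nilpotent_right := isNilpotent_of_comm (Tl_comm h.s')
  cond_left := h.cond
  cond_right := h.symm.cond

/-- the map of the Levi `SL₂` -/
def psiL (p r p' r' : Fin k ⊕ Fin k → F) (α β γ η : F) :
    (Fin k ⊕ Fin k → F) →ₗ[F] (Fin k ⊕ Fin k → F) :=
  LinearMap.id + ((α - 1) • Bf p' + β • Bf r).smulRight p + (γ • Bf p' + (η - 1) • Bf r).smulRight r'
    + ((η - 1) • Bf p - γ • Bf r').smulRight p' + ((-β) • Bf p + (α - 1) • Bf r').smulRight r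

lemma psiL_apply (α β γ η : F) (v : Vv) :
    psiL p r p' r' α β γ η v = v + ((α - 1) * B v p' + β * B v r) • p + (γ * B v p' + (η - 1) * B v r) • r'
      + ((η - 1) * B v p - γ * B v r') • p' + ((-β) * B v p + (α - 1) * B v r') • r := rfl

section
variable (h : Opp p r p' r')
include h

lemma B_psi_p' (α β γ η : F) (v : Vv) : B (psiL p r p' r' α β γ η v) p' = α * B v p' + β * B v r := by
  rw [psiL_apply]
  simp only [B_add_left, B_smul_left, h.e1, h.e3, h.s'.pp, h.s'.rp]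
  ring

lemma B_psi_r (α β γ η : F) (v : Vv) : B (psiL p r p' r' α β γ η v) r = γ * B v p' + η * B v r := by
  have e5 : B p' r = 0 := by rw [B_comm]; exact h.e3
  have e7 : B r' r = 1 := by rw [B_comm]; exact h.e4
  rw [psiL_apply]
  simp only [B_add_left, B_smul_left, h.s.hpr, e7, e5, h.s.rr]
  ring

lemma B_psi_p (α β γ η : F) (v : Vv) : B (psiL p r p' r' α β γ η v) p = η * B v p - γ * B v r' := by
  have e6 : B p' p = 1 := by rw [B_comm]; exact h.e1
  have e8 : B r' p = 0 := by rw [B_comm]; exact h.e2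
  rw [psiL_apply]
  simp only [B_add_left, B_smul_left, h.s.pp, e8, e6, h.s.rp]
  ring

lemma B_psi_r' (α β γ η : F) (v : Vv) : B (psiL p r p' r' α β γ η v) r' = (-β) * B v p + α * B v r' := by
  rw [psiL_apply]
  simp only [B_add_left, B_smul_left, h.e2, h.s'.rr, h.s'.hpr, h.e4]
  ring

lemma psiL_comp (α β γ η α' β' γ' η' : F) (v : Vv) :
    psiL p r p' r' α β γ η (psiL p r p' r' α' β' γ' η' v) =
      psiL p r p' r' (α * α' + β * γ') (α * β' + β * η') (γ * α' + η * γ') (γ * β' + η * η') v := by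
  rw [psiL_apply (p := p) (r := r) (p' := p') (r' := r') α β γ η, B_psi_p' h, B_psi_r h, B_psi_p h, B_psi_r' h,
    psiL_apply, psiL_apply]
  ext i
  simp only [Pi.add_apply, Pi.smul_apply, smul_eq_mul]
  ring

lemma Q_psiL {α β γ η : F} (hdet : α * η - β * γ = 1) (v : Vv) :
    Q (psiL p r p' r' α β γ η v) = Q v := by
  have e5 : B p' r = 0 := by rw [B_comm]; exact h.e3
  have e6 : B p' p = 1 := by rw [B_comm]; exact h.e1
  have e7 : B r' r = 1 := by rw [B_comm]; exact h.e4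
  have e8 : B r' p = 0 := by rw [B_comm]; exact h.e2
  rw [psiL_apply]
  simp only [Q_add, Q_smul, B_add_left, B_smul_left, B_smul_right, h.s.hp, h.s.hr, h.s'.hp, h.s'.hr, h.s.hpr,
    h.s.rp, h.s'.hpr, h.s'.rp, h.e1, h.e2, h.e3, h.e4, e5, e6, e7, e8]
  linear_combination (B v p' * B v p + B v r * B v r') * hdet

end

lemma psiL_one (v : Vv) : psiL p r p' r' 1 0 0 1 v = v := by
  rw [psiL_apply]; simp

/-- the element attached to a matrix of determinant one -/
def psiE (h : Opp p r p' r') {α β γ η : F} (hdet : α * η - β * γ = 1) : isometryGroup F (quadFormPlus k F) :=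
  mkIso (psiL p r p' r' α β γ η) (psiL p r p' r' η (-β) (-γ) α)
    (fun v => by
      rw [psiL_comp h]
      have e1 : α * η + β * -γ = 1 := by linear_combination hdet
      have e2 : α * -β + β * α = 0 := by ring
      have e3 : γ * η + η * -γ = 0 := by ring
      have e4 : γ * -β + η * α = 1 := by linear_combination hdet
      rw [e1, e2, e3, e4, psiL_one])
    (fun v => by
      rw [psiL_comp h]
      have e1 : η * α + -β * γ = 1 := by linear_combination hdet
      have e2 : η * β + -β * η = 0 := by ring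
      have e3 : -γ * α + α * γ = 0 := by ring
      have e4 : -γ * β + α * η = 1 := by linear_combination hdet
      rw [e1, e2, e3, e4, psiL_one])
    (Q_psiL h hdet)

lemma act_psiE (h : Opp p r p' r') {α β γ η : F} (hdet : α * η - β * γ = 1) (v : Vv) :
    act (psiE h hdet) v = psiL p r p' r' α β γ η v := act_mkIso _ _ _ _ _ v

lemma det_SL (M : SL(2, F)) : (M : Matrix (Fin 2) (Fin 2) F) 0 0 * (M : Matrix (Fin 2) (Fin 2) F) 1 1 -
    (M : Matrix (Fin 2) (Fin 2) F) 0 1 * (M : Matrix (Fin 2) (Fin 2) F) 1 0 = 1 := by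
  have := M.2
  rwa [Matrix.det_fin_two] at this

/-- the homomorphism -/
def psi (h : Opp p r p' r') : SL(2, F) →* isometryGroup F (quadFormPlus k F) :=
  MonoidHom.mk' (fun M => psiE h (det_SL M)) (by
    intro M N
    apply iso_ext
    intro v
    rw [act_mul, act_psiE, act_psiE, act_psiE, psiL_comp h]
    have e : ((M * N : SL(2, F)) : Matrix (Fin 2) (Fin 2) F) =
        (M : Matrix (Fin 2) (Fin 2) F) * (N : Matrix (Fin 2) (Fin 2) F) := rfl
    simp only [e, Matrix.mul_apply, Fin.sum_univ_two])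

lemma act_psi (h : Opp p r p' r') (M : SL(2, F)) (v : Vv) :
    act (psi h M) v = psiL p r p' r' ((M : Matrix (Fin 2) (Fin 2) F) 0 0) ((M : Matrix (Fin 2) (Fin 2) F) 0 1)
      ((M : Matrix (Fin 2) (Fin 2) F) 1 0) ((M : Matrix (Fin 2) (Fin 2) F) 1 1) v :=
  act_psiE h (det_SL M) v

lemma psi_injective (h : Opp p r p' r') : Function.Injective (psi h) := by
  rw [injective_iff_map_eq_one]
  intro M hM
  have hfix : ∀ v, psiL p r p' r' ((M : Matrix (Fin 2) (Fin 2) F) 0 0) ((M : Matrix (Fin 2) (Fin 2) F) 0 1)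
      ((M : Matrix (Fin 2) (Fin 2) F) 1 0) ((M : Matrix (Fin 2) (Fin 2) F) 1 1) v = v := by
    intro v
    rw [← act_psi h, hM, act_one]
  have a1 := B_psi_p' h ((M : Matrix (Fin 2) (Fin 2) F) 0 0) ((M : Matrix (Fin 2) (Fin 2) F) 0 1)
      ((M : Matrix (Fin 2) (Fin 2) F) 1 0) ((M : Matrix (Fin 2) (Fin 2) F) 1 1)
  have a2 := B_psi_r h ((M : Matrix (Fin 2) (Fin 2) F) 0 0) ((M : Matrix (Fin 2) (Fin 2) F) 0 1)
      ((M : Matrix (Fin 2) (Fin 2) F) 1 0) ((M : Matrix (Fin 2) (Fin 2) F) 1 1)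
  simp only [hfix] at a1 a2
  have e7 : B r' r = 1 := by rw [B_comm]; exact h.e4
  have b1 := a1 p
  have b2 := a1 r'
  have b3 := a2 p
  have b4 := a2 r'
  rw [h.e1, h.s.hpr] at b1 b3
  rw [h.s'.rp, e7] at b2 b4
  apply Cfsg.Agent.Lib.KS2.SL2.ext4
  · show _ = (1 : Matrix (Fin 2) (Fin 2) F) 0 0
    rw [Matrix.one_apply_eq]
    linear_combination -b1
  · show _ = (1 : Matrix (Fin 2) (Fin 2) F) 0 1
    rw [Matrix.one_apply_ne (by simp)]
    linear_combination -b2
  · show _ = (1 : Matrix (Fin 2) (Fin 2) F) 1 0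
    rw [Matrix.one_apply_ne (by simp)]
    linear_combination -b3
  · show _ = (1 : Matrix (Fin 2) (Fin 2) F) 1 1
    rw [Matrix.one_apply_eq]
    linear_combination -b4

lemma psi_up (h : Opp p r p' r') (t : F) : psi h (up t) = sg h.s t := by
  apply iso_ext
  intro v
  rw [act_psi, act_sg, psiL_apply]
  ext i
  simp only [up00, up01, up10, up11, Pi.add_apply, Pi.smul_apply, Pi.sub_apply, smul_eq_mul]
  ring

lemma psi_lo (h : Opp p r p' r') (t : F) : psi h (lo t) = sg h.s' (-t) := by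
  apply iso_ext
  intro v
  rw [act_psi, act_sg, psiL_apply]
  ext i
  simp only [lo00, lo01, lo10, lo11, Pi.add_apply, Pi.smul_apply, Pi.sub_apply, smul_eq_mul]
  ring

theorem Opp.psl2 (h : Opp p r p' r') : IsPSL2PairOver F (Tl h.s) (Tl h.s') := by
  have hU : (upperUnipotentSL2 F).map (psi h) = Tl h.s := by
    ext x
    constructor
    · rintro ⟨g, hg, rfl⟩
      obtain ⟨t, rfl⟩ := mem_upper_iff.mp hg
      rw [psi_up]
      exact sg_mem _ _
    · rintro ⟨c, rfl⟩
      exact ⟨up c, mem_upper_iff.mpr ⟨_, rfl⟩, psi_up h c⟩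
  have hL : (lowerUnipotentSL2 F).map (psi h) = Tl h.s' := by
    ext x
    constructor
    · rintro ⟨g, hg, rfl⟩
      obtain ⟨t, rfl⟩ := mem_lower_iff.mp hg
      rw [psi_lo]
      exact sg_mem _ _
    · rintro ⟨c, rfl⟩
      refine ⟨lo (-c), mem_lower_iff.mpr ⟨_, rfl⟩, ?_⟩
      rw [psi_lo, neg_neg]
  refine ⟨psi h, ?_, ?_, hU, hL⟩
  · rw [← hU, ← hL, MonoidHom.range_eq_map, ← sup_eq_top, Subgroup.map_sup, sup_comm]
  · rw [(MonoidHom.ker_eq_bot_iff _).mpr (psi_injective h)]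
    exact bot_le

/-- normalized rank one lines -/
structure Rk1 (p r p' r' : Fin k ⊕ Fin k → F) : Prop where
  s : Sing p r
  s' : Sing p' r'
  e1 : B p p' = 1
  e2 : B p r' = 0
  e3 : B r p' = 0
  e4 : B r r' = 0

lemma Rk1.s3 (h : Rk1 p r p' r') : Sing r' r := ⟨h.s'.hr, h.s.hr, by rw [B_comm]; exact h.e4⟩

lemma Rk1.identity (h : Rk1 p r p' r') (s t : F) :
    sg h.s s * sg h.s' t = sg h.s3 (s * t) * sg h.s' t * sg h.s s := by
  have e5 : B p' r = 0 := by rw [B_comm]; exact h.e3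
  have e6 : B p' p = 1 := by rw [B_comm]; exact h.e1
  have e7 : B r' r = 0 := by rw [B_comm]; exact h.e4
  have e8 : B r' p = 0 := by rw [B_comm]; exact h.e2
  apply iso_ext
  intro v
  rw [act_mul, act_mul, act_mul]
  simp only [act_sg, B_add_left, B_smul_left, B_sub_left, h.s.pp, h.s.rr, h.s.hpr, h.s.rp, h.s'.pp,
    h.s'.rr, h.s'.hpr, h.s'.rp, h.e1, h.e2, h.e3, h.e4, e5, e6, e7, e8]
  ext i
  simp only [Pi.add_apply, Pi.smul_apply, Pi.sub_apply, smul_eq_mul]
  ring

lemma Rk1.comm3_left (h : Rk1 p r p' r') : ∀ a ∈ Tl h.s3, ∀ b ∈ Tl h.s, a * b = b * a :=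
  sg_commute h.s3 h.s (by rw [B_comm]; exact h.e2) (by rw [B_comm]; exact h.e4) h.s.rp h.s.rr

lemma Rk1.comm3_right (h : Rk1 p r p' r') : ∀ a ∈ Tl h.s3, ∀ b ∈ Tl h.s', a * b = b * a :=
  sg_commute h.s3 h.s' h.s'.rp h.s'.rr h.e3 h.e4

lemma Rk1.commutator (h : Rk1 p r p' r') (s t : F) :
    sg h.s s * sg h.s' t * (sg h.s s)⁻¹ * (sg h.s' t)⁻¹ = sg h.s3 (s * t) := by
  rw [h.identity]
  group

lemma Rk1.sg3_one_of_dep (h : Rk1 p r p' r') {l : F} (e : r' = l • r) (c : F) : sg h.s3 c = 1 := by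
  apply iso_ext
  intro v
  rw [act_sg, act_one, e, B_smul_right]
  ext i
  simp only [Pi.add_apply, Pi.smul_apply, Pi.sub_apply, smul_eq_mul]
  ring

lemma Rk1.commute_of_dep (h : Rk1 p r p' r') {l : F} (e : r' = l • r) :
    ∀ a ∈ Tl h.s, ∀ b ∈ Tl h.s', a * b = b * a := by
  rintro _ ⟨s, rfl⟩ _ ⟨t, rfl⟩
  rw [h.identity, h.sg3_one_of_dep e, one_mul]

end Cfsg.Agent.Lib.SiegelRoot
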